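import Cfsg.Agent.J4.W

/-! The normalizer of the self-centralizing elementary abelian subgroup of order `2 ^ 10`. -/

set_option autoImplicit false
set_option maxRecDepth 1000000
set_option linter.unusedSectionVars false

namespace CF.J4
open Cfsg Subgroup CF.Loc CF.Even CF.LX CF.Comp CF.Dce CF.Comp.Mat CF.Dce.J4
open CF.Leech (pt ofMask idx toMask)
open scoped Pointwise

variable {G : Type*} [Group G]

section
variable [Finite G] {n N : ℕ} {S Z : Subgroup G} {ν : G → ℕ} (C : Co n S Z ν) (hN : N = 2 ^ n) (h16 : N < 16777215)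
  {A K : Subgroup G} (hA : ∀ g ∈ A, ∀ k ∈ A, g * k = k * g) (hK : ∀ g, Ac n S ν g (mo n) → g ∈ K) {W : Set ℕ}
  (hW : ∀ v ∈ W, ∃ e ∈ A, e ∈ S ∧ ν e = v) {c : ℕ} (hc : c ≤ W.ncard)
include C hN h16 hA hK hW hc

theorem Co.tri_fin {d b F : ℕ} {L : List (ℕ × ℕ)} (hF : ∀ v ∈ W, F.testBit v = true) (h : tri n N c d b F L = true)
    (X : Finset (ℕ × ℕ)) (hX : ∀ x ∈ X, x ∈ L ∧ ∃ g ∈ A, Ent n N S ν g x) : X.card ≤ b := by
  have base : ∀ (X : Finset (ℕ × ℕ)) (L : List (ℕ × ℕ)), (∀ x ∈ X, x ∈ L) → X.card ≤ llen L := fun X L h =>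
    (Finset.card_le_card fun x hx => List.mem_toFinset.2 (h x hx)).trans (llen_eq L ▸ L.toFinset_card_le)
  induction d generalizing b F L X with
  | zero => exact (base X L fun x hx => (hX x hx).1).trans (ble_iff.1 h)
  | succ d ih =>
    induction L with
    | nil => exact (base X [] fun x hx => (hX x hx).1).trans (Nat.zero_le b)
    | cons y t ih2 =>
      rcases brec_or.1 h with h | h
      · exact (base X (y :: t) fun x hx => (hX x hx).1).trans (ble_iff.1 h)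
      obtain ⟨h1, h⟩ := brec_and.1 h
      obtain ⟨h2, h3⟩ := brec_and.1 h
      by_cases hy : y ∈ X
      · obtain ⟨-, k, hk, h5⟩ := hX y hy
        rw [force_eq, forceP_eq, force_eq] at h2
        have h7 : ∀ v ∈ W, (Nat.land y.2 F).testBit v = true := fun v hv => (Nat.testBit_and _ _ _).trans (by
          rw [(C.ent_fix hN h16 hA hK hW hc hk h5 hv).2, hF v hv]; rfl)
        have := ih h7 h2 (X.erase y) fun x hx => by
          obtain ⟨a1, g, hg, a2⟩ := hX x (Finset.mem_of_mem_erase hx)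
          refine ⟨mem_lfil ((List.mem_cons.1 a1).resolve_left (Finset.ne_of_mem_erase hx)) (brec_and.2 ⟨ble_iff.2
            (hc.trans (ncard_le_pop h16 fun v hv => ?_)), beq_iff.2 (C.uniq' (C.cd.mul' a2.1 h5.1)
              (hA g hg k hk ▸ C.cd.mul' h5.1 a2.1) (mm_lt C.pos _ _) (mm_lt C.pos _ _))⟩), g, hg, a2⟩
          obtain ⟨h3, h4⟩ := C.ent_fix hN h16 hA hK hW hc hg a2 hv
          exact ⟨h3, (Nat.testBit_and _ _ _).trans (by rw [h4, h7 v hv]; rfl)⟩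
        rw [Finset.card_erase_of_mem hy, Nat.pred_eq_sub_one] at this
        have := ble_iff.1 h1
        omega
      · exact ih2 h3 fun x hx => ⟨(List.mem_cons.1 (hX x hx).1).resolve_left fun e => hy (e ▸ hx), (hX x hx).2⟩

theorem Co.tri_spec {d b F : ℕ} {L : List (ℕ × ℕ)} (hF : ∀ v ∈ W, F.testBit v = true)
    (hL : ∀ g ∈ A, ∃ x ∈ L, Ent n N S ν g x) (h : tri n N c d b F L = true) :
    Nat.card A ≤ b * Nat.card ↥(A ⊓ K) := by
  classical
  refine (card_le_rel (r := Ent n N S ν) (L := (L.toFinset.filter fun x => ∃ g ∈ A, Ent n N S ν g x).toList)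
    (fun g _ k _ x h1 h2 => hK _ (C.ac_div h1.1 h2.1)) fun g hg => ?_).trans (Nat.mul_le_mul_right _ ?_)
  · obtain ⟨x, h1, h2⟩ := hL g hg
    exact ⟨x, Finset.mem_toList.2 (Finset.mem_filter.2 ⟨List.mem_toFinset.2 h1, g, hg, h2⟩), h2⟩
  · rw [Finset.length_toList]
    exact C.tri_fin hN h16 hA hK hW hc hF h _ fun x hx =>
      ⟨List.mem_toFinset.1 (Finset.mem_filter.1 hx).1, (Finset.mem_filter.1 hx).2⟩

end

theorem rSy : Reps D0 nSy (el nSy) := reps_el (by decide +kernel)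

theorem tbSy : Tb Lm (el nSy) (nth (mo 11) LSy) := lm_cd.tb (m := 10) (by decide +kernel) (fun i hi =>
  ev_single (el nSy) i ▸ lm_of rSy ((by decide +kernel :
    ∀ i < 10, lmOK nSy [2 * i + 1] (nth (mo 11) LSy (2 * i + 1)) = true) i hi))
  fun _ hi => D0_full.els_eq_one (le_trans (by decide +kernel) hi)

theorem pcSy' : Bt.Pc (el nSy) 2 ss10 :=
  (Bt.eqv_sameW rSy k5 (D0_full.faithful ⊤)).pc (c := pcSy) (by decide +kernel)

theorem sylSy : IsSyl 2 (clo (el nSy) ss10) M24 := by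
  have l : clo (el nSy) ss10 ≤ M24 := clo_le.2 fun w _ => (lm_cd.ev tbSy w).mem
  obtain ⟨S, hS, -⟩ := exists_isSyl_ge (pcSy'.pgroup two_ne_zero) l
  refine hS.of_card_le (pcSy'.pgroup two_ne_zero) l ?_
  refine le_trans ?_ (le_trans (show 2 ^ 10 ≤ _ by decide +kernel) (rSy.chain_le (c := cSy) (by norm_num)
    (by decide +kernel) fun w hw => ev_mem_clo_of_wordIn (lall_iff.1
      (show lall (wordIn ss10) (cgens cSy) = true by decide +kernel) w hw)))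
  rw [hS.card_eq, Mat.card_M24, show (244823040 : ℕ).factorization 2 = 10 by
      rw [Nat.factorization_def _ Nat.prime_two]; simp only [padicValNat]; decide +kernel]

theorem invSy {ρ : Equiv.Perm GolayPt} (h : ρ ∈ clo (el nSy) ss10) (e : ρ * ρ = 1) : ∃ x ∈ L192, Lm ρ x := by
  obtain ⟨x, h1, h2⟩ := pcSy'.run two_ne_zero (R := Lm) (fun w g v k a c => ⟨_, lm_cd.mul' (lm_cd.ev tbSy w) a,
    force_eq _ k ▸ c⟩) lm_cd.one' chk_w11 ρ h
  rw [mul_one] at h1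
  obtain ⟨y, h3, h4⟩ := lany_iff.1 (imp_iff.1 h2 (beq_iff.2 (mat_ext t11 (mm_lt t11 _ _) (mo_lt t11) fun c hc =>
    (lm_cd.mul' h1 h1).eq (e ▸ lm_cd.one') hc)))
  exact ⟨y, h3, beq_iff.1 h4 ▸ h1⟩

/-- generators of `N(A)` modulo `A` -/
noncomputable def g8 (y : G) (V : Subgroup G) (ν : G → ℕ) (κ : Equiv.Perm GolayPt → G) (i : ℕ) : G :=
  if i = 7 then y else g7 V ν κ i

/-- a split extension by `L₅(2)` -/
theorem split_L5 [Finite G] {A : Subgroup G} [A.Normal] [IsMulCommutative A] (cA : Nat.card A = 2 ^ 10)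
    (cG : Nat.card G ≤ 2 ^ 10 * 9999360) {g : ℕ → G} (hr : ∀ r ∈ Held.RL, ev g r ∈ A) (h0 : g 0 ∉ A) {K : Subgroup G}
    (hK : ∀ i < 4, g i ∈ K) (cK : Nat.card K ≤ 1024) :
    ∃ B, IsComplement' A B ∧ Nonempty (B ≃* Matrix.SpecialLinearGroup (Fin 5) (ZMod 2)) := by
  haveI := Held.simple_L
  have hq : ∀ r ∈ Held.RL, ev (fun i => QuotientGroup.mk' A (g i)) r = 1 := fun r h => by
    rw [← map_ev]; exact (QuotientGroup.eq_one_iff _).2 (hr r h)
  have hf : ∀ r ∈ Held.RL, ev Held.fL r = 1 := fun r hr => Subtype.ext ((Held.ev_fL r).trans (by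
    rw [(by decide +kernel : ∀ r ∈ Held.RL, Held.evc r = 17043521) r hr, Held.toM_one]
    exact Matrix.submatrix_one_equiv Held.π5))
  obtain ⟨φ, h1, h2, -⟩ := (Held.bndL (ug_rels _)).exists_inj hf Held.fL_top Held.card_L hq (w := [2 * 0 + 1]) (by decide +kernel)
    fun e => h0 ((QuotientGroup.eq_one_iff _).1 ((ev_single _ 0).symm.trans e))
  have c1 := card_eq_card_quotient_mul_card_subgroup A
  have c2 := Nat.card_le_card_of_injective φ h1
  rw [Held.card_L] at c2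
  have c3 : Nat.card (G ⧸ A) = 9999360 := by rw [cA] at c1; omega
  have h3 := h1.bijective_of_nat_card_le (by rw [c3, Held.card_L])
  have c4 := (Held.eL2.bound hq (Held.eL1.card_le (rels_sub hq (by decide +kernel))
    (H := K.map (QuotientGroup.mk' A)) (fun w hw => by
      obtain ⟨i, hi, rfl⟩ := (by decide +kernel : ∀ w ∈ Held.GT, ∃ i < 4, w = [2 * i + 1]) w hw
      rw [ev_single]; exact mem_map_of_mem _ (hK i hi)) ⟨inferInstance, le_rfl⟩)).2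
  rw [← h2, MonoidHom.range_eq_top.2 h3.2, card_top, c3] at c4
  have c5 := (Nat.le_of_dvd Nat.card_pos (card_map_dvd K (QuotientGroup.mk' A))).trans cK
  have c6 := (K.map (QuotientGroup.mk' A)).card_mul_index
  have c7 : (A ⊔ K).index = 9765 := by
    rw [sup_comm, ← QuotientGroup.ker_mk' A, ← comap_map_eq, index_comap_of_surjective _ (QuotientGroup.mk'_surjective A)]
    rw [c3, show Nat.card (K.map (QuotientGroup.mk' A)) = 1024 by omega] at c6; omega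
  have c8 := (A ⊔ K).card_mul_index
  have c9 := card_sup_mul_card_inf' (H := A) (N := K) (le_top.trans (normalizer_eq_top A).ge)
  rw [show Nat.card ↥(A ⊔ K) = 2 ^ 20 by rw [c7, c1, c3, cA] at c8; omega, cA] at c9
  obtain ⟨B, hB⟩ := Solv.gaschutz_exists A (A ⊔ K) (by rw [c7, cA]; norm_num) (A := K)
    (by rw [inf_comm]; exact (card_le_one_iff_eq_bot _).1 (by omega)) rfl
  exact ⟨B, hB, ⟨hB.symm.QuotientMulEquiv.symm.trans (MulEquiv.ofBijective φ h3).symm⟩⟩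

namespace JK
variable [Finite G] {E : Subgroup G} {z p : G} {Φ : G → Equiv.Perm GolayPt} {π : G → ℕ} {f : ℕ → G}
  {V : Subgroup G} {ν : G → ℕ} {κ : Equiv.Perm GolayPt → G} (h : JK E z p Φ π f V ν κ)
  {A : Subgroup G} {μ : G → ℕ} (C : CA V ν κ A μ)
include h C

local notation "ϖ" => pm24 V ν
local notation "Ψ" => Ps V ν κ
local notation "χ" => chi (aW V ν κ) 10
local notation "γ" => g8 (ev (FF E π p f) wY4) V ν κ

theorem g8_one {i : ℕ} (hi : 8 ≤ i) : γ i = 1 := by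
  rw [g8, if_neg (by omega)]
  exact h.ps_eq (h.tb7.odd i) ((nth_of_le (mo 11) (l := LG7) (le_trans (by decide +kernel)
    (show 15 ≤ 2 * i + 1 by omega))).symm ▸ h.ps_cd.one')

theorem tb8 : Tb (Ac 10 A μ) γ (nth (mo 10) LA8) := C.co.cd.tb (m := 8) (by decide +kernel) (fun i hi => by
    rw [g8]; split_ifs with h1
    · exact h1 ▸ h.ac7 C
    · exact (by decide +kernel : ∀ i < 8, ¬ i = 7 → nth (mo 10) (LA8.take 15) (2 * i + 1) =
        nth (mo 10) LA8 (2 * i + 1)) i hi h1 ▸ (h.tbA7 C).odd i) fun _ => h.g8_one C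

theorem orbA {ws : List (List ℕ)} {j c : ℕ} {H : Subgroup G} (hH : ∀ w ∈ ws, ev γ w ∈ H) (hc : c < 1024) {a : G}
    (ha : a ∈ A) (e : (orb nL8 ws j (Nat.shiftLeft (nat_lit 1) c)).testBit (μ a) = true) : a ∈ cls H (χ c) := by
  have hR := C.co.reps (N := 1024) (by norm_num) (h.tb8 C) chk_w6 fun i hi => by
    rw [h.g8_one C hi]; exact C.co.cd.one'
  obtain ⟨g, hg, e1⟩ := hR.exists_of_mem_orb_pt hH hc ((Dom.pt_mem_set (C.co.lt a ha)).2 e)
  have := C.co.conj_of_smul _ (C.ch c hc).1 ((C.ch c hc).2.symm ▸ e1)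
  exact ⟨g, hg, C.co.ext this.1 ha this.2⟩

theorem orbN {a : G} (ha : a ∈ A) : (m155.testBit (μ a) = true → a ∈ cls 𝐍(A) z) ∧
    (m868.testBit (μ a) = true → a ∈ cls 𝐍(A) (χ 8)) :=
  have m := fun w (_ : w ∈ ss8) => ev_mem (fun i => ((h.tb8 C).odd i).1) w
  ⟨fun e => h.chi_z ▸ h.orbA C m (by norm_num) ha (chk_w7.1 ▸ e),
    fun e => h.orbA C m (by norm_num) ha (chk_w7.2.1 ▸ e)⟩

theorem tri_A {a : G} (ha : a ∈ A) (h1 : a ≠ 1) : m155.testBit (μ a) = true ∨ m868.testBit (μ a) = true := by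
  rcases brec_or.1 (allBin_spec chk_w8 (by norm_num) _ (C.co.lt a ha)) with e | e
  · exact .inl (tb_eq _ _ ▸ e)
  rcases brec_or.1 e with e | e
  · exact .inr (tb_eq _ _ ▸ e)
  · exact (h1 ((C.co.ker a ha).1 (beq_iff.1 e))).elim

theorem clsA_z {a : G} : a ∈ cls 𝐍(A) z ↔ a ∈ A ∧ m155.testBit (μ a) = true := by
  refine ⟨fun ⟨n, hn, e⟩ => ?_, fun e => (h.orbN C e.1).1 e.2⟩
  have ha : a ∈ A := e ▸ norm_mem' hn (h.zA C).1
  refine ⟨ha, (h.tri_A C ha fun e1 => h.z_ne (by simpa [e1] using e)).resolve_right fun e1 => ?_⟩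
  obtain ⟨m, -, e2⟩ := (h.orbN C ha).2 e1
  exact h.nz8 C ((e ▸ isConj_cj' n z).trans (e2 ▸ isConj_cj' m _).symm)

theorem clsA_d {a : G} : a ∈ cls 𝐍(A) (χ 8) ↔ a ∈ A ∧ m868.testBit (μ a) = true := by
  refine ⟨fun ⟨n, hn, e⟩ => ?_, fun e => (h.orbN C e.1).2 e.2⟩
  have h8 := C.ch 8 (by norm_num)
  have ha : a ∈ A := e ▸ norm_mem' hn h8.1
  refine ⟨ha, (h.tri_A C ha fun e1 => ?_).resolve_left fun e1 => ?_⟩
  · rw [show χ 8 = 1 by simpa [e1] using e, C.co.one] at h8; exact absurd h8.2 (by decide)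
  obtain ⟨m, -, e2⟩ := (h.orbN C ha).1 e1
  exact h.nz8 C ((e2 ▸ isConj_cj' m z).trans (e ▸ isConj_cj' n _).symm)

theorem ncA_z : (cls 𝐍(A) z).ncard = 155 := by
  rw [Set.ext fun _ => h.clsA_z C]
  exact (C.co.ncard_mask (N := 1024) (by norm_num) (by norm_num) (by decide +kernel)).trans (by decide +kernel)

theorem ncA_d : (cls 𝐍(A) (χ 8)).ncard = 868 := by
  rw [Set.ext fun _ => h.clsA_d C]
  exact (C.co.ncard_mask (N := 1024) (by norm_num) (by norm_num) (by decide +kernel)).trans (by decide +kernel)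

theorem irrA {W : Subgroup G} (h1 : W ≤ A) (h2 : 𝐍(A) ≤ 𝐍(W)) : W = ⊥ ∨ W = A := by
  refine or_iff_not_imp_left.2 fun h0 => le_antisymm h1 ?_
  obtain ⟨⟨w, hw⟩, w1⟩ := ne_bot_iff_exists_ne_one.1 h0
  have key : ∀ (x : G) (M : ℕ) (l : List ℕ), (∀ a, a ∈ cls 𝐍(A) x ↔ a ∈ A ∧ M.testBit (μ a) = true) →
      M.testBit (μ w) = true → (∀ i < 10, nth 0 l i < 2 ^ 10 ∧ M.testBit (nth 0 l i) = true ∧
        M.testBit (nth 0 l i ^^^ 2 ^ i) = true) → A ≤ W := fun x M l e e1 e2 => by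
    have k1 : ∀ a ∈ A, M.testBit (μ a) = true → a ∈ W := fun a ha e3 => by
      obtain ⟨n, hn, rfl⟩ := (e a).2 ⟨ha, e3⟩
      obtain ⟨m, hm, rfl⟩ := (e w).2 ⟨h1 hw, e1⟩
      convert norm_mem' (h2 (mul_mem hn (inv_mem hm))) hw using 1; group
    refine C.co.le_of fun i hi a ha e3 => ?_
    have k2 := C.ch _ (e2 i hi).1
    exact (W.mul_mem_cancel_left (k1 _ k2.1 (k2.2.symm ▸ (e2 i hi).2.1))).1 (k1 _ (mul_mem k2.1 ha)
      (by rw [C.co.mul _ k2.1 _ ha, k2.2, e3]; exact (e2 i hi).2.2))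
  rcases h.tri_A C (h1 hw) (fun e => w1 (Subtype.ext e)) with e | e
  · exact key _ _ irZ (fun _ => h.clsA_z C) e (by decide +kernel)
  · exact key _ _ irD (fun _ => h.clsA_d C) e (by decide +kernel)

theorem aA {i : ℕ} (hi : i < 10) : aW V ν κ i ∈ A :=
  chi_pow (aW V ν κ) hi ▸ (C.ch _ (Nat.pow_lt_pow_right one_lt_two hi)).1

theorem ps_e {i : ℕ} (hi : i < 4) : Ψ (aW V ν κ (6 + i) * vc V ν (nth 0 eL4 i))
    (am 11 (nth 0 LPs (6 + i)) (tl 11 (nth 0 eL4 i))) :=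
  h.ps_cd.mul' (h.ps_a (by omega)) (h.ps_vc ((by decide +kernel : ∀ i < 4, nth 0 eL4 i < 2048) i hi))

theorem u_cj {i : ℕ} (hi : i < 4) : (vc V ν 256)⁻¹ * aW V ν κ (6 + i) * vc V ν 256 =
    aW V ν κ (6 + i) * vc V ν (nth 0 eL4 i) :=
  h.ps_cj (h.ps_vc (by norm_num)) (h.ps_a (by omega)) (h.ps_e C hi) (by revert i; decide +kernel)

theorem ncm {i j : ℕ} (hi : i < 4) (hj : j < 4) (e : aW V ν κ (6 + i) * (aW V ν κ (6 + j) * vc V ν (nth 0 eL4 j)) =
    aW V ν κ (6 + j) * vc V ν (nth 0 eL4 j) * aW V ν κ (6 + i)) : i = j := by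
  have := h.ps_uniq (h.ps_cd.mul' (h.ps_a (show 6 + i < 10 by omega)) (h.ps_e C hj))
    (e ▸ h.ps_cd.mul' (h.ps_e C hj) (h.ps_a (show 6 + i < 10 by omega)))
  clear e; revert this; revert j; revert i; decide +kernel

theorem card_NA : Nat.card 𝐍(A) ≤ 2 ^ 10 * 9999360 := by
  have c1 := card_cls 𝐍(A) (χ 8)
  have c2 := card_cls (𝐍(A) ⊓ 𝐍(V)) (χ 8)
  rw [inf_assoc, inf_eq_right.2 (h.cent_dA C)] at c2
  have c3 : 28 ≤ (cls (𝐍(A) ⊓ 𝐍(V)) (χ 8)).ncard := by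
    rw [← show pop 1024 m28 = 28 by decide +kernel,
      ← C.co.ncard_mask (N := 1024) (by norm_num) (by norm_num) (by decide +kernel)]
    refine Set.ncard_le_ncard (fun a ha => h.orbA C (fun w hw => ?_) (by norm_num) ha.1 (chk_w7.2.2 ▸ ha.2))
    obtain ⟨i, hi, rfl⟩ := (by decide : ∀ w ∈ ss8.take 7, ∃ i < 7, w = [2 * i + 1]) w hw
    rw [ev_single]
    exact ⟨((h.tb8 C).odd i).1, by rw [g8, if_neg hi.ne]; exact (h.ps_ac (h.tb7.odd i)).1⟩
  have c4 := h.pi_hom.card_eq (T := 𝐍(A) ⊓ 𝐍(V)) (Z := 𝐍(A) ⊓ V) inf_le_right fun g =>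
    ⟨fun e => ⟨⟨e.1, le_normalizer e.2⟩, h.pi_V e.2⟩, fun e => ⟨e.1.1, h.pi_ker e.1.2 e.2⟩⟩
  have c5 : Nat.card (h.pi_hom.im (𝐍(A) ⊓ 𝐍(V)) inf_le_right) ≤ 322560 := card_octad_stab ▸ card_le_of_le fun x hx => by
    obtain ⟨g, hg, rfl⟩ := h.pi_hom.mem_im.1 hx
    exact h.oct C hg.1 hg.2
  have c6 := card_mul_relIndex (inf_le_right : 𝐍(A) ⊓ V ≤ V)
  have c7 : (𝐍(A) ⊓ V).relIndex V ≠ 1 := fun e => by
    have := norm_mem (relIndex_eq_one.1 e (h.co.vc (c := 256) (by norm_num)).1).1 (h.aA C (i := 6 + 0) (by norm_num))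
    rw [h.u_cj C (by norm_num)] at this
    exact absurd (h.ncm C (i := 1) (by norm_num) (by norm_num) (C.co.comm (h.aA C (by norm_num)) this)) (by decide)
  have c8 : Nat.card ↥(𝐍(A) ⊓ V) * 2 ≤ 2 ^ 11 := by
    rw [h.card_V] at c6
    refine c6 ▸ Nat.mul_le_mul_left _ ?_
    have : (𝐍(A) ⊓ V).relIndex V ≠ 0 := fun e => by rw [e] at c6; omega
    omega
  have c9 := Nat.mul_le_mul c5 (show Nat.card ↥(𝐍(A) ⊓ V) ≤ 1024 by omega)
  have c10 := Nat.mul_le_mul_right (Nat.card ↥(𝐍(A) ⊓ 𝐂₁(χ 8))) c3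
  rw [h.ncA_d C] at c1
  omega

theorem cplA : ∃ B ≤ 𝐍(A), B ⊓ A = ⊥ ∧ B ⊔ A = 𝐍(A) ∧
    Nonempty (B ≃* Matrix.SpecialLinearGroup (Fin 5) (ZMod 2)) := by
  haveI : IsMulCommutative (A.subgroupOf 𝐍(A)) := ⟨⟨fun x y => Subtype.ext (Subtype.ext (C.co.comm x.2 y.2))⟩⟩
  have m := fun i => ((h.tb8 C).odd i).1
  have b := Held.bndT (g := g7 V ν κ) fun r hr => h.ps_eq (h.ps_cd.ev h.tb7 r)
    ((beq_iff.1 (lall_iff.1 chk_w5 r hr)).symm ▸ h.ps_cd.one')
  obtain ⟨B, hB, e⟩ := split_L5 (A := A.subgroupOf 𝐍(A))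
    (by rw [Nat.card_congr (subgroupOfEquivOfLe le_normalizer).toEquiv, h.card_A C]) (h.card_NA C)
    (g := fun i => ⟨γ i, m i⟩) (fun r hr => by
      rw [mem_subgroupOf, ← coe_subtype, map_ev]
      exact h.cent_A C (C.co.cent (beq_iff.1 (lall_iff.1 chk_w4 r hr) ▸ C.co.cd.ev (h.tb8 C) r)))
    (fun e => absurd (C.co.uniq ((h.tb8 C).odd 0) (C.co.ac_self e) (c := 4) (by norm_num)) (by decide +kernel))
    (K := (clo (g7 V ν κ) Held.GT).subgroupOf 𝐍(A)) (fun i hi => by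
      rw [mem_subgroupOf, coe_mk, g8, if_neg (by omega), ← ev_single (g7 V ν κ) i]
      exact ev_mem_clo _ ((by decide +kernel : ∀ i < 4, [2 * i + 1] ∈ Held.GT) i hi))
    (by rw [← inf_subgroupOf_right, Nat.card_congr (subgroupOfEquivOfLe inf_le_right).toEquiv]
        exact (card_le_of_le inf_le_left).trans b.2)
  refine ⟨B.map 𝐍(A).subtype, map_subtype_le B, ?_, ?_, e.map fun e =>
    (B.equivMapOfInjective _ 𝐍(A).subtype_injective).symm.trans e⟩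
  · refine (congrArg (_ ⊓ ·) (map_subgroupOf_eq_of_le (le_normalizer (H := A))).symm).trans ?_
    rw [← map_inf _ _ _ 𝐍(A).subtype_injective, hB.symm.disjoint.eq_bot, Subgroup.map_bot]
  · refine (congrArg (_ ⊔ ·) (map_subgroupOf_eq_of_le (le_normalizer (H := A))).symm).trans ?_
    rw [← Subgroup.map_sup, hB.symm.sup_eq_top, ← MonoidHom.range_eq_map, range_subtype]

section
variable {X : Subgroup G} (h1 : X ≤ 𝐍(V)) (h2 : ∀ g ∈ X, pm24 V ν g ∈ clo (el nSy) ss10) (h3 : EA X)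
  (h4 : Nat.card X = 2 ^ 10) (h5 : 𝐂(X) ≤ X)
include h1 h2 h3 h4 h5

theorem jA1 : Nat.card ↥(X ⊓ V) = 2 ^ 6 ∧ ∀ g ∈ X, ∃ j < 16, Ac 11 V ν g (psA (64 * j)) := by
  have hL : ∀ g ∈ X, ∃ x ∈ withFix 11 2048 L192, Ent 11 2048 V ν g x := fun g hg => by
    obtain ⟨x, a1, a2⟩ := invSy (h2 g hg) (by rw [← h.pi_hom _ (h1 hg) _ (h1 hg), h3 g hg, h.pi_hom.one])
    exact ⟨(x, _), by rw [withFix, lmap_eq]; exact List.mem_map.2 ⟨x, a1, rfl⟩, h.ac_of (h1 hg) a2,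
      (by decide +kernel : ∀ x ∈ L192, x < 2 ^ (11 * 11)) x a1, rfl⟩
  obtain ⟨m, hm⟩ := (h.ea.pgroup.to_le (inf_le_right : X ⊓ V ≤ V)).exists_card_eq
  have h8 := h.co.card_le_img (inf_le_right : X ⊓ V ≤ V)
  rw [card_bot, mul_one, hm] at h8
  have hW : ∀ v ∈ ν '' (X ⊓ V : Subgroup G), ∃ e ∈ X, e ∈ V ∧ ν e = v := fun v ⟨e, a, c⟩ => ⟨e, a.1, a.2, c⟩
  have hF : ∀ v ∈ ν '' (X ⊓ V : Subgroup G), (full 2048).testBit v = true := fun v ⟨e, a, c⟩ => by
    rw [testBit_full, ← c]; exact decide_eq_true (h.lt a.2)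
  have h9 : m < 10 := by
    by_contra hn
    have e := inf_eq_left.1 (Comp.eq_of_le_of_card_le (inf_le_left : X ⊓ V ≤ X) (by
      rw [hm, h4]; exact Nat.pow_le_pow_right two_pos (not_lt.1 hn)))
    have := card_le_of_le ((h.ea.le_cent.trans (centralizer_anti e)).trans h5)
    rw [h4, h.card_V] at this; omega
  have key : ∀ m', ofW m' = true → (Bool.rec (Nat.pow 2 m') 0 (Nat.beq m' 3) : ℕ) ≤ 2 ^ m →
      2 ^ 10 ≤ Nat.div 1023 (Nat.pow 2 m') * 2 ^ m := fun m' e l => by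
    rw [ofW, forceP_eq, force_eq, forceP_eq] at e
    rw [← h4, ← hm]
    exact h.co.tri_spec (N := 2048) (by norm_num) (by norm_num) h3.comm (fun _ => h.ker_V) hW (l.trans h8) hF
      (h.co.cnds_spec (N := 2048) (by norm_num) (by norm_num) h3.comm (fun _ => h.ker_V) hW (l.trans h8) hF hL
        (one_mem X) ⟨h.co.cd.one', mo_lt t11, rfl⟩) e
  obtain rfl : m = 6 := by
    by_contra hn
    interval_cases m
    exacts [absurd (key 3 chk_o3 (by decide)) (by decide), absurd (key 3 chk_o3 (by decide)) (by decide),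
      absurd (key 3 chk_o3 (by decide)) (by decide), absurd (key 3 chk_o3 (by decide)) (by decide),
      absurd (key 4 chk_o4 (by decide)) (by decide), absurd (key 5 chk_o5 (by decide)) (by decide), hn rfl,
      absurd (key 7 chk_o7 (by decide)) (by decide), absurd (key 8 chk_o8 (by decide)) (by decide),
      absurd (key 9 chk_o9 (by decide)) (by decide)]
  refine ⟨hm, fun g hg => ?_⟩
  obtain ⟨y, a1, a2⟩ := hL g hg
  have h6 := chk_o6
  rw [forceP_eq, lall_iff] at h6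
  rcases brec_or.1 (h6 y a1) with e | e
  · obtain ⟨j, hj, e⟩ := lany_iff.1 e
    exact ⟨j, (by decide : ∀ j ∈ [0, 1, 2, 3, 4, 5, 6, 7, 8, 9, 10, 11, 12, 13, 14, 15], j < 16) j hj,
      (show y.1 = psA (64 * j) from beq_iff.1 e) ▸ a2.1⟩
  have hF' := fun v hv => (h.co.ent_fix (N := 2048) (by norm_num) (by norm_num) h3.comm (fun _ => h.ker_V) hW h8
    hg a2 (v := v) hv).2
  have := h.co.ofd_spec (N := 2048) (by norm_num) (by norm_num) h3.comm (fun _ => h.ker_V) hW h8 hF'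
    (h.co.cnds_spec (N := 2048) (by norm_num) (by norm_num) h3.comm (fun _ => h.ker_V) hW h8 hF' hL hg a2) e
  rw [h4, hm] at this; omega

theorem jA : ∃ g, X = cj[g] A := by
  obtain ⟨a1, a2⟩ := h.jA1 C h1 h2 h3 h4 h5
  have dv : ∀ g c, Ac 11 V ν g (psA c) → (χ c)⁻¹ * g ∈ V := fun g c e =>
    h.ker_V (h.co.ac_div (h.ps_ac (h.ps_chi c)) e)
  have cv : ∀ v ∈ V, v ∈ A → v ∈ X := fun v hv ha => h5 (mem_centralizer_iff.2 fun g hg => by
    obtain ⟨j, hj, e⟩ := a2 g hg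
    rw [← mul_inv_cancel_left (χ (64 * j)) g, mul_assoc, h.co.comm (dv _ _ e) hv, ← mul_assoc,
      C.co.comm (C.ch (64 * j) (by omega)).1 ha, mul_assoc])
  have ex : ∀ i < 4, aW V ν κ (6 + i) ∈ X ∨ aW V ν κ (6 + i) * vc V ν (nth 0 eL4 i) ∈ X := fun i hi => by
    obtain ⟨g, hg, e⟩ : ∃ g ∈ X, Ac 11 V ν g (psA (64 * 2 ^ i)) := by
      by_contra hn
      have := card_le_rel (Z := V) (r := fun g j => Ac 11 V ν g (psA (64 * j))) (L := (List.range 16).erase (2 ^ i))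
        (fun g _ k _ x e1 e2 => h.ker_V (h.co.ac_div e1 e2)) fun g hg => by
          obtain ⟨j, hj, e⟩ := a2 g hg
          exact ⟨j, (List.mem_erase_of_ne fun (e1 : j = 2 ^ i) => hn ⟨g, hg, e1 ▸ e⟩).2 (List.mem_range.2 hj), e⟩
      rw [h4, a1, (by decide : ∀ i < 4, ((List.range 16).erase (2 ^ i)).length = 15) i hi] at this; omega
    have l : 6 + i < 10 := by omega
    have e1 := dv _ _ e
    rw [show 64 * 2 ^ i = 2 ^ (6 + i) by rw [pow_add]; rfl, chi_pow _ l] at e1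
    have e2 : vm 11 (ν ((aW V ν κ (6 + i))⁻¹ * g)) (nth 0 LPs (6 + i)) = ν ((aW V ν κ (6 + i))⁻¹ * g) := by
      have i1 := inv_eq_of_mul_eq_one_left (C.co.sq (h.aA C l))
      rw [← (h.ps_ac (h.ps_a l)).2 _ e1, ← h.co.inv e1, mul_inv_rev, h3.inv hg, inv_inv, i1, ← mul_assoc,
        C.co.sq (h.aA C l), one_mul]
    have e3 := h.co.vc ((by decide +kernel : ∀ i < 4, nth 0 eL4 i < 2 ^ 11) i hi)
    rcases brec_or.1 (imp_iff.1 (allBin_spec (allFrom_zero.1 chk_w10 i hi) (by norm_num) _ (h.lt e1))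
      (beq_iff.2 e2)) with e4 | e4
    · have := mul_mem hg (inv_mem (cv _ e1 (h.cv_mem C e1 e4).1))
      rw [mul_inv_rev, mul_inv_cancel_left, inv_inv] at this
      exact .inl this
    · have e5 := mul_mem e1 e3.1
      have := mul_mem hg (inv_mem (cv _ e5 (h.cv_mem C e5 (by rw [h.co.mul _ e1 _ e3.1, e3.2]; exact e4)).1))
      rw [h.co.comm e1 e3.1, mul_inv_rev, mul_inv_rev, inv_inv, ← mul_assoc, mul_inv_cancel_left,
        h.ea.inv e3.1] at this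
      exact .inr this
  have fin : ∀ u ∈ V, (∀ i < 4, u⁻¹ * aW V ν κ (6 + i) * u ∈ X) → X = cj[u⁻¹] A := fun u hu e => by
    refine (Comp.eq_of_le_of_card_le (cj_le_iff.2 (C.co.le_of fun i hi a ha e1 => mem_cj.2 ?_))
      (by rw [card_cj, h4, h.card_A C])).symm
    rw [inv_inv u, ← h.chi_mu C ha, e1, chi_pow _ hi]
    by_cases l : i < 6
    · have : aW V ν κ i ∈ V := by
        rw [aW, if_pos l]; exact (h.co.vc ((by decide +kernel : ∀ i < 6, nth 0 cvb i < 2 ^ 11) i l)).1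
      rw [mul_assoc, h.co.comm this hu, inv_mul_cancel_left]
      exact cv _ this (h.aA C hi)
    · exact (Nat.add_sub_cancel' (not_lt.1 l)) ▸ e (i - 6) (by omega)
  by_cases e0 : aW V ν κ (6 + 0) ∈ X
  · refine ⟨_, fin 1 (one_mem V) fun i hi => ?_⟩
    rw [inv_one, one_mul, mul_one]
    refine (ex i hi).elim id fun e => ?_
    exact h.ncm C (by norm_num) hi (h3.comm _ e0 _ e) ▸ e0
  · refine ⟨_, fin _ (h.co.vc (c := 256) (by norm_num)).1 fun i hi => ?_⟩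
    rw [h.u_cj C hi]
    refine (ex i hi).resolve_left fun e => e0 ?_
    exact h.ncm C hi (by norm_num) (h3.comm _ e _ ((ex 0 (by norm_num)).resolve_left e0)) ▸ e

end

theorem cjA {X : Subgroup G} (h3 : EA X) (h4 : Nat.card X = 2 ^ 10) (h5 : 𝐂(X) ≤ X) : ∃ g, X = cj[g] A := by
  obtain ⟨g, -, e⟩ := h.syl.exists_cj_le h3.pgroup le_top
  have l := e.trans (h.T_le.trans h.B_norm)
  obtain ⟨ρ, hρ, e1⟩ := sylSy.exists_cj_le (Q := h.pi_hom.im _ l) (EA.pgroup fun x hx => by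
    obtain ⟨a, ha, rfl⟩ := h.pi_hom.mem_im.1 hx
    rw [← h.pi_hom _ (l ha) _ (l ha), h3.cj g a ha, h.pi_hom.one]) fun x hx => by
      obtain ⟨a, ha, rfl⟩ := h.pi_hom.mem_im.1 hx
      exact h.pi_mem (l ha)
  have m := h.sp.mem ρ hρ
  obtain ⟨u, e2⟩ := h.jA C (X := cj[κ ρ] (cj[g] X)) (cj_le_of_mem m l) (fun x hx => by
      obtain ⟨a, ha, rfl⟩ : ∃ a ∈ cj[g] X, κ ρ * a * (κ ρ)⁻¹ = x := ⟨_, mem_cj.1 hx, by group⟩
      rw [h.pi_hom.conj m (l ha), h.sp.pi ρ hρ]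
      exact e1 (conj_mem_cj ρ (h.pi_hom.mem_im.2 ⟨a, ha, rfl⟩))) ((h3.cj g).cj _) (by rw [card_cj, card_cj, h4])
    (by rw [← cj_centralizer, ← cj_centralizer]; exact cj_mono _ (cj_mono _ h5))
  rw [← cj_mul, cj_eq_iff, ← cj_mul] at e2
  exact ⟨_, e2⟩

end JK

end CF.J4
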